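import Mathlib

set_option autoImplicit false

namespace Cfsg.Agent.Lib.Helper41

variable {G : Type*} [Group G]

theorem conj_map_map (V : Subgroup G) (g h : G) :
    (V.map (MulAut.conj g).toMonoidHom).map (MulAut.conj h).toMonoidHom =
      V.map (MulAut.conj (h * g)).toMonoidHom := by
  rw [Subgroup.map_map]
  congr 1
  ext a
  simp [MulAut.conj_apply, mul_assoc]

theorem conj_map_one (V : Subgroup G) : V.map (MulAut.conj (1 : G)).toMonoidHom = V := by
  ext a
  constructor
  · rintro ⟨b, hb, rfl⟩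
    simpa using hb
  · intro ha
    exact ⟨a, ha, by simp⟩

theorem isKleinFour_map_conj (V : Subgroup G) (hV : IsKleinFour V) (g : G) :
    IsKleinFour (V.map (MulAut.conj g).toMonoidHom) := by
  have e : V ≃* V.map (MulAut.conj g).toMonoidHom :=
    V.equivMapOfInjective _ (MulAut.conj g).injective
  exact ⟨(Nat.card_congr e.toEquiv).symm.trans hV.card_four,
    (Monoid.exponent_eq_of_mulEquiv e).symm.trans hV.exponent_two⟩

/-- if the subgroups with a conjugation-invariant property number `|G|/12` and each class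
among them has `|G|/24` members, there are exactly two classes -/
theorem two_classes [Finite G] (P : Subgroup G → Prop)
    (hP : ∀ (V : Subgroup G) (g : G), P V → P (V.map (MulAut.conj g).toMonoidHom))
    (h12 : 12 * Nat.card {V : Subgroup G // P V} = Nat.card G)
    (h24 : ∀ V : Subgroup G, P V → 24 * Nat.card {W : Subgroup G //
      ∃ g : G, W = V.map (MulAut.conj g).toMonoidHom} = Nat.card G) :
    ∃ V₁ V₂ : Subgroup G, P V₁ ∧ P V₂ ∧
      (¬ ∃ g : G, V₂ = V₁.map (MulAut.conj g).toMonoidHom) ∧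
      ∀ W : Subgroup G, P W → (∃ g : G, W = V₁.map (MulAut.conj g).toMonoidHom) ∨
        (∃ g : G, W = V₂.map (MulAut.conj g).toMonoidHom) := by
  classical
  haveI : Fintype (Subgroup G) := Fintype.ofFinite _
  have hGpos : 0 < Nat.card G := Nat.card_pos
  obtain ⟨sP, hsP⟩ : ∃ sP : Finset (Subgroup G), sP = Finset.univ.filter P := ⟨_, rfl⟩
  have hsPmem : ∀ V, V ∈ sP ↔ P V := by
    intro V
    rw [hsP]
    simp
  have hcP : Nat.card {V : Subgroup G // P V} = sP.card := Nat.subtype_card sP hsPmem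
  rw [hcP] at h12
  have hcls : ∀ V : Subgroup G, ∃ O : Finset (Subgroup G),
      (∀ W, W ∈ O ↔ ∃ g : G, W = V.map (MulAut.conj g).toMonoidHom) ∧
      (P V → 24 * O.card = Nat.card G) ∧ (P V → O ⊆ sP) := by
    intro V
    have hmem : ∀ W, W ∈ Finset.univ.filter
        (fun W : Subgroup G => ∃ g : G, W = V.map (MulAut.conj g).toMonoidHom) ↔
        ∃ g : G, W = V.map (MulAut.conj g).toMonoidHom := by
      intro W
      exact ⟨fun h => (Finset.mem_filter.mp h).2,
        fun h => Finset.mem_filter.mpr ⟨Finset.mem_univ _, h⟩⟩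
    refine ⟨_, hmem, ?_, ?_⟩
    · intro hV
      rw [← h24 V hV]
      congr 1
      exact (Nat.subtype_card _ hmem).symm
    · intro hV W hW
      obtain ⟨g, rfl⟩ := (hmem W).mp hW
      exact (hsPmem _).mpr (hP V g hV)
  have hne : sP.Nonempty := by
    rw [← Finset.card_pos]
    omega
  obtain ⟨V₁, hV₁m⟩ := hne
  have hV₁ := (hsPmem V₁).mp hV₁m
  obtain ⟨O₁, hO₁mem, hO₁card, hO₁sub⟩ := hcls V₁
  have hc1 := hO₁card hV₁
  have hs1 := hO₁sub hV₁
  obtain ⟨V₂, hV₂m, hV₂n⟩ : ∃ V₂, V₂ ∈ sP ∧ V₂ ∉ O₁ := by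
    apply Finset.exists_mem_notMem_of_card_lt_card
    omega
  have hV₂ := (hsPmem V₂).mp hV₂m
  obtain ⟨O₂, hO₂mem, hO₂card, hO₂sub⟩ := hcls V₂
  have hc2 := hO₂card hV₂
  have hs2 := hO₂sub hV₂
  have hdisj : Disjoint O₁ O₂ := by
    rw [Finset.disjoint_left]
    intro W hW1 hW2
    obtain ⟨g, rfl⟩ := (hO₁mem W).mp hW1
    obtain ⟨h, hh⟩ := (hO₂mem _).mp hW2
    apply hV₂n
    rw [hO₁mem]
    refine ⟨h⁻¹ * g, ?_⟩
    rw [← conj_map_map, hh, conj_map_map, inv_mul_cancel, conj_map_one]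
  have hunion : O₁ ∪ O₂ = sP := by
    apply Finset.eq_of_subset_of_card_le (Finset.union_subset hs1 hs2)
    rw [Finset.card_union_of_disjoint hdisj]
    omega
  refine ⟨V₁, V₂, hV₁, hV₂, ?_, ?_⟩
  · intro h
    exact hV₂n ((hO₁mem V₂).mpr h)
  · intro W hW
    have hWm : W ∈ O₁ ∪ O₂ := by
      rw [hunion]
      exact (hsPmem W).mpr hW
    rcases Finset.mem_union.mp hWm with h | h
    · left
      exact (hO₁mem W).mp h
    · right
      exact (hO₂mem W).mp h

end Cfsg.Agent.Lib.Helper41
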